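import Cfsg.Agent.CosetEnum.J3.KHData

/-! Certificate of a coset enumeration (generated data, owner: helper12). -/

set_option autoImplicit false
set_option maxRecDepth 1000000

namespace Cfsg.Agent.CosetEnum.J3KH

def ck0 : CK := .cons 11 1 0x480a4088000250220000740002100108005540002a800403201100880240120010000340010009900003d ( .nil )

theorem part0 : chunks P L 11 ck0 0 1 = true := by decide +kernel

end Cfsg.Agent.CosetEnum.J3KH
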