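import Cfsg.Agent.CosetEnum.Step
import Cfsg.Agent.CosetEnum.J3.KHP0

/-! Certificate of a coset enumeration (generated data, owner: helper12). -/

set_option autoImplicit false
set_option maxRecDepth 1000000

namespace Cfsg.Agent.CosetEnum.J3KH

theorem st : staticOK 6 iv (RL.map expand) subs P L = true := by decide +kernel

theorem seg : Seg P L P.m 1 :=
  (Seg.nil).snoc part0

theorem cert : Cert 6 iv RL subs 1 := fun g H hl hrels hsubs =>
  upper g H 6 iv hl (RL.map expand) subs hrels hsubs P L rfl st seg

end Cfsg.Agent.CosetEnum.J3KH
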