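import Cfsg.Agent.CosetEnum.Step
import Cfsg.Agent.CosetEnum.J3.M6P0
import Cfsg.Agent.CosetEnum.J3.M6P1
import Cfsg.Agent.CosetEnum.J3.M6P2
import Cfsg.Agent.CosetEnum.J3.M6P3
import Cfsg.Agent.CosetEnum.J3.M6P4
import Cfsg.Agent.CosetEnum.J3.M6P5
import Cfsg.Agent.CosetEnum.J3.M6P6
import Cfsg.Agent.CosetEnum.J3.M6P7
import Cfsg.Agent.CosetEnum.J3.M6P8
import Cfsg.Agent.CosetEnum.J3.M6P9
import Cfsg.Agent.CosetEnum.J3.M6P10
import Cfsg.Agent.CosetEnum.J3.M6P11
import Cfsg.Agent.CosetEnum.J3.M6P12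
import Cfsg.Agent.CosetEnum.J3.M6P13
import Cfsg.Agent.CosetEnum.J3.M6P14
import Cfsg.Agent.CosetEnum.J3.M6P15
import Cfsg.Agent.CosetEnum.J3.M6P16
import Cfsg.Agent.CosetEnum.J3.M6P17
import Cfsg.Agent.CosetEnum.J3.M6P18
import Cfsg.Agent.CosetEnum.J3.M6P19
import Cfsg.Agent.CosetEnum.J3.M6P20
import Cfsg.Agent.CosetEnum.J3.M6P21
import Cfsg.Agent.CosetEnum.J3.M6P22
import Cfsg.Agent.CosetEnum.J3.M6P23
import Cfsg.Agent.CosetEnum.J3.M6P24
import Cfsg.Agent.CosetEnum.J3.M6P25
import Cfsg.Agent.CosetEnum.J3.M6P26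
import Cfsg.Agent.CosetEnum.J3.M6P27
import Cfsg.Agent.CosetEnum.J3.M6P28

/-! Certificate of a coset enumeration (generated data, owner: helper12). -/

set_option autoImplicit false
set_option maxRecDepth 1000000

namespace Cfsg.Agent.CosetEnum.J3M6

theorem st : staticOK 6 iv (RL.map expand) subs P L = true := by decide +kernel

theorem seg : Seg P L P.m 73872 :=
  (((((((((((((((((((((((((((((Seg.nil).snoc part0).snoc part1).snoc part2).snoc part3).snoc part4).snoc part5).snoc part6).snoc part7).snoc part8).snoc part9).snoc part10).snoc part11).snoc part12).snoc part13).snoc part14).snoc part15).snoc part16).snoc part17).snoc part18).snoc part19).snoc part20).snoc part21).snoc part22).snoc part23).snoc part24).snoc part25).snoc part26).snoc part27).snoc part28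

theorem cert : Cert 6 iv RL subs 73872 := fun g H hl hrels hsubs =>
  upper g H 6 iv hl (RL.map expand) subs hrels hsubs P L rfl st seg

end Cfsg.Agent.CosetEnum.J3M6
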