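import Cfsg.Agent.CosetEnum.J3.Simple

/-!
Janko's third group as a permutation group of degree 6156 (owner: helper12).
-/

set_option autoImplicit false
set_option maxRecDepth 1000000

namespace Cfsg.Agent.CosetEnum.J3

open MulAction

theorem exists_perm : ∃ H : Subgroup (Equiv.Perm (Fin 6156)), Cfsg.IsJ3 H ∧ MulAction.IsPretransitive H (Fin 6156) ∧
    Nat.card (MulAction.stabilizer H (0 : Fin 6156)) = 8160 := by
  obtain ⟨A, letsk, cw, _, _, hA, _, htr, _, _, hst⟩ := LJ.ex
  have hinj := FJ.1 A hA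
  let φ : QJ →* Equiv.Perm (Fin 6156) := MulAction.toPermHom QJ (Fin J3T6.P.m)
  have hφi : Function.Injective φ := hinj
  let e : QJ ≃* φ.range := MonoidHom.ofInjective hφi
  refine ⟨φ.range, ⟨simple_equiv e simple_J, ?_⟩, ⟨?_⟩, ?_⟩
  · rw [← card_J]
    exact (Nat.card_congr e.toEquiv).symm
  · intro i j
    obtain ⟨y, hy⟩ := htr.exists_smul_eq (show Fin J3T6.P.m from i) (show Fin J3T6.P.m from j)
    exact ⟨e y, hy⟩
  · have hmem : ∀ y : QJ, e y ∈ MulAction.stabilizer φ.range (0 : Fin 6156) ↔ y ∈ Cl qJ 5 := by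
      intro y
      rw [← hst, MulAction.mem_stabilizer_iff, MulAction.mem_stabilizer_iff]
      exact Iff.rfl
    have hmap : (Cl qJ 5).map e.toMonoidHom = MulAction.stabilizer φ.range (0 : Fin 6156) := by
      ext z
      constructor
      · rintro ⟨y, hy, rfl⟩
        exact (hmem y).2 hy
      · intro hz
        obtain ⟨y, rfl⟩ := e.surjective z
        exact ⟨y, (hmem y).1 hz, rfl⟩
    have E : Cl qJ 5 ≃* MulAction.stabilizer φ.range (0 : Fin 6156) :=
      ((Cl qJ 5).equivMapOfInjective e.toMonoidHom e.injective).trans (MulEquiv.subgroupCongr hmap)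
    rw [← card_H]
    exact (Nat.card_congr E.toEquiv).symm

end Cfsg.Agent.CosetEnum.J3
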